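import Cfsg.Agent.Lib.Helper21.O10.Defs
import Cfsg.Agent.Lib.Helper57.OE.Base

set_option autoImplicit false
set_option linter.unusedSectionVars false
set_option linter.unusedVariables false

/-! helper21's farm O10 (S5847 + S5850), pieces H1 and H5 (helper52). -/

namespace Cfsg.Agent.Lib.Helper52.O10

open Cfsg Cfsg.Geo Matrix Cfsg.Agent.Lib.Helper13.Asch Cfsg.Agent.Lib.Helper90.Sp
  Cfsg.Agent.Lib.Helper57.OE Cfsg.Agent.Lib.Helper21.O10
open scoped Kronecker MatrixGroups commutatorElement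

variable {ι : Type} [Fintype ι] [DecidableEq ι] {F : Type*} [Field F] {Q : (ι → F) → F}

theorem plus_of_similar_halves (hQ : IsNondegenerateQuadraticForm Q)
    (W W' : Submodule F (ι → F)) (φ : (ι → F) →ₗ[F] (ι → F)) (δ : F) (hc : IsCompl W W')
    (horth : ∀ w ∈ W, ∀ w' ∈ W', QuadraticMap.polar Q w w' = 0)
    (hφ : ∀ w ∈ W, φ w ∈ W' ∧ Q (φ w) = δ * Q w) (hδ : δ ≠ 0)
    (hdim : 2 * Module.finrank F W = Fintype.card ι) (hsq : IsSquare (-δ)) :
    IsPlusTypeOn Q ⊤ := by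
  obtain ⟨s, hs⟩ := hsq
  have hs0 : s ≠ 0 := by
    rintro rfl
    apply hδ
    simpa using hs
  have hc2 : (s⁻¹) ^ 2 * δ = -1 := by
    have h1 : δ = -(s * s) := by rw [← hs]; ring
    rw [h1]
    field_simp
  let ψ : (ι → F) →ₗ[F] (ι → F) := LinearMap.id + s⁻¹ • φ
  have hψ : ∀ w, ψ w = w + s⁻¹ • φ w := fun w => rfl
  refine ⟨W.map ψ, le_top, ?_, ?_⟩
  · rintro _ ⟨w, hw, rfl⟩
    rw [hψ, Q_add Q, hQ.smul, (hφ w hw).2, hQ.polar_bilinear.smul_right, horth w hw _ (hφ w hw).1]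
    linear_combination (Q w) * hc2
  · have hinj : Function.Injective (ψ.domRestrict W) := by
      rw [← LinearMap.ker_eq_bot, LinearMap.ker_eq_bot']
      intro w h
      have h0 : (w : ι → F) + s⁻¹ • φ w = 0 := h
      have h1 : (w : ι → F) = -(s⁻¹ • φ w) := eq_neg_of_add_eq_zero_left h0
      have h2 : (w : ι → F) ∈ W' := by
        rw [h1]; exact W'.neg_mem (W'.smul_mem _ (hφ w w.2).1)
      have h3 : (w : ι → F) ∈ W ⊓ W' := ⟨w.2, h2⟩
      rw [hc.inf_eq_bot, Submodule.mem_bot] at h3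
      exact Subtype.ext h3
    have hfr : Module.finrank F (W.map ψ) = Module.finrank F W := by
      rw [← LinearMap.finrank_range_of_inj hinj, LinearMap.range_domRestrict]
    rw [hfr, hdim, finrank_top, Module.finrank_fintype_fun_eq_card]

theorem isometric_of_square_similarity (hQ : IsNondegenerateQuadraticForm Q)
    (W W' : Submodule F (ι → F)) (hW : IsNondegenerateOn (QuadraticMap.polar Q) W)
    (hdim : Module.finrank F W = Module.finrank F W')
    (φ : (ι → F) →ₗ[F] (ι → F)) (δ : F) (hδ : δ ≠ 0) (hsq : IsSquare δ)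
    (hφ : ∀ w ∈ W, φ w ∈ W' ∧ Q (φ w) = δ * Q w) : AreIsometricFor Q W W' := by
  obtain ⟨s, hs⟩ := hsq
  have hs0 : s ≠ 0 := by
    rintro rfl
    apply hδ
    simpa using hs
  let ψ0 : W →ₗ[F] W' := LinearMap.codRestrict W' ((s⁻¹ • φ).domRestrict W)
    (fun w => W'.smul_mem _ (hφ w w.2).1)
  have hψ0 : ∀ w : W, ((ψ0 w : W') : ι → F) = s⁻¹ • φ w := fun w => rfl
  have hQψ : ∀ w : W, Q ((ψ0 w : W') : ι → F) = Q (w : ι → F) := by
    intro w
    rw [hψ0, hQ.smul, (hφ w w.2).2, hs]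
    field_simp
  have hinj : Function.Injective ψ0 := by
    rw [← LinearMap.ker_eq_bot, LinearMap.ker_eq_bot']
    intro w hw
    by_contra hne
    obtain ⟨⟨x, hx, hfx⟩, -⟩ := hW w w.2 (fun h => hne (Subtype.ext h))
    apply hfx
    have h1 : QuadraticMap.polar Q x w
        = QuadraticMap.polar Q ((ψ0 ⟨x, hx⟩ : W') : ι → F) ((ψ0 w : W') : ι → F) := by
      unfold QuadraticMap.polar
      rw [← Submodule.coe_add, ← map_add, hQψ, hQψ, hQψ]
      rfl
    rw [h1, hw]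
    simp [QuadraticMap.polar, Q_zero hQ]
  exact ⟨LinearEquiv.ofInjectiveOfFinrankEq ψ0 hinj hdim, fun w => hQψ w⟩

end Cfsg.Agent.Lib.Helper52.O10
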