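import Cfsg.Agent.Lib.Helper21.O10.Defs
import Cfsg.Agent.Lib.Helper57.OE.Base

set_option autoImplicit false
set_option linter.unusedSectionVars false
set_option linter.unusedVariables false

/-! helper21's farm O10 (S5847 + S5850), piece H2 (helper52). -/

namespace Cfsg.Agent.Lib.Helper52.O10

open Cfsg Cfsg.Geo Matrix Cfsg.Agent.Lib.Helper13.Asch Cfsg.Agent.Lib.Helper90.Sp
  Cfsg.Agent.Lib.Helper57.OE Cfsg.Agent.Lib.Helper21.O10
open scoped Kronecker MatrixGroups commutatorElement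

variable {ι : Type} [Fintype ι] [DecidableEq ι] {F : Type*} [Field F] {Q : (ι → F) → F}

theorem exists_J_of_similar_halves (hQ : IsNondegenerateQuadraticForm Q)
    (W W' : Submodule F (ι → F)) (φ : (ι → F) →ₗ[F] (ι → F)) (δ : F) (hc : IsCompl W W')
    (horth : ∀ w ∈ W, ∀ w' ∈ W', QuadraticMap.polar Q w w' = 0)
    (hφ : ∀ w ∈ W, φ w ∈ W' ∧ Q (φ w) = δ * Q w) (hδ : δ ≠ 0)
    (hdim : 2 * Module.finrank F W = Fintype.card ι) :
    ∃ J : Matrix ι ι F, J * J = (-δ) • 1 ∧ (∀ v, Q (J *ᵥ v) = δ * Q v) ∧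
      ∀ v, QuadraticMap.polar Q v (J *ᵥ v) = 0 := by
  have hB := hQ.polar_bilinear
  have hsymm : ∀ u v, QuadraticMap.polar Q u v = QuadraticMap.polar Q v u :=
    fun u v => QuadraticMap.polar_comm Q u v
  have hpol : ∀ a ∈ W, ∀ b ∈ W,
      QuadraticMap.polar Q (φ a) (φ b) = δ * QuadraticMap.polar Q a b := by
    intro a ha b hb
    unfold QuadraticMap.polar
    rw [← map_add, (hφ _ (W.add_mem ha hb)).2, (hφ a ha).2, (hφ b hb).2]
    ring
  have hzero : ∀ u, QuadraticMap.polar Q u 0 = 0 := by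
    intro u
    have := hB.smul_right 0 u 0
    simpa using this
  let φ0 : W →ₗ[F] W' := LinearMap.codRestrict W' (φ.domRestrict W) (fun w => (hφ w w.2).1)
  have hφ0 : ∀ w : W, ((φ0 w : W') : ι → F) = φ w := fun w => rfl
  have hinj : Function.Injective φ0 := by
    rw [← LinearMap.ker_eq_bot, LinearMap.ker_eq_bot']
    intro w hw
    have hw0 : φ (w : ι → F) = 0 := by rw [← hφ0, hw]; rfl
    by_contra hne
    obtain ⟨⟨x, hfx⟩, -⟩ := hQ.nondegenerate w (fun h => hne (Subtype.ext h))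
    apply hfx
    have hx : x ∈ W ⊔ W' := by rw [hc.sup_eq_top]; exact Submodule.mem_top
    obtain ⟨x1, hx1, x2, hx2, rfl⟩ := Submodule.mem_sup.1 hx
    rw [hB.add_left, hsymm x2 w, horth w w.2 x2 hx2, add_zero]
    have h1 := hpol x1 hx1 w w.2
    rw [hw0, hzero] at h1
    rcases mul_eq_zero.1 h1.symm with h | h
    · exact absurd h hδ
    · exact h
  have hfr : Module.finrank F W = Module.finrank F W' := by
    have h1 := Submodule.finrank_add_eq_of_isCompl hc
    rw [Module.finrank_fintype_fun_eq_card] at h1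
    omega
  let e : W ≃ₗ[F] W' := LinearEquiv.ofInjectiveOfFinrankEq φ0 hinj hfr
  have he : ∀ w : W, ((e w : W') : ι → F) = φ w := fun w => rfl
  let pW := Submodule.projectionOnto W W' hc
  let pW' := Submodule.projectionOnto W' W hc.symm
  let J₀ : (ι → F) →ₗ[F] (ι → F) :=
    (-δ) • (W.subtype ∘ₗ e.symm.toLinearMap ∘ₗ pW') + φ ∘ₗ W.subtype ∘ₗ pW
  have hJ₀ : ∀ v, J₀ v = (-δ) • ((e.symm (pW' v) : W) : ι → F) + φ ((pW v : W) : ι → F) :=
    fun v => rfl
  have key : ∀ w u : W, J₀ ((w : ι → F) + φ u) = (-δ) • (u : ι → F) + φ w := by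
    intro w u
    have h1 : pW ((w : ι → F) + φ u) = w := by
      have a1 : pW (w : ι → F) = w := Submodule.projectionOnto_apply_left hc w
      have a2 : pW (φ u) = 0 := (Submodule.projectionOnto_apply_eq_zero_iff hc).2 (hφ u u.2).1
      rw [map_add, a1, a2, add_zero]
    have h2 : pW' ((w : ι → F) + φ u) = e u := by
      have a1 : pW' (w : ι → F) = 0 := (Submodule.projectionOnto_apply_eq_zero_iff hc.symm).2 w.2
      have a2 : pW' (φ u) = e u := by
        rw [← he u]
        exact Submodule.projectionOnto_apply_left hc.symm (e u)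
      rw [map_add, a1, a2, zero_add]
    rw [hJ₀, h1, h2, LinearEquiv.symm_apply_apply]
  have hdec : ∀ v : ι → F, ∃ w u : W, v = (w : ι → F) + φ u := by
    intro v
    refine ⟨pW v, e.symm (pW' v), ?_⟩
    rw [← he, LinearEquiv.apply_symm_apply]
    exact (Submodule.projection_add_projection_eq_self hc v).symm
  refine ⟨LinearMap.toMatrix' J₀, ?_, ?_, ?_⟩
  · rw [← LinearMap.toMatrix'_mul]
    have h1 : J₀ * J₀ = (-δ) • LinearMap.id := by
      apply LinearMap.ext
      intro v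
      obtain ⟨w, u, rfl⟩ := hdec v
      have h2 : J₀ ((-δ) • (u : ι → F) + φ w) = (-δ) • (w : ι → F) + φ ((-δ) • (u : ι → F)) :=
        key ((-δ) • u) w
      rw [Module.End.mul_apply, key, h2, map_smul, LinearMap.smul_apply, LinearMap.id_apply,
        smul_add]
    rw [h1, map_smul, LinearMap.toMatrix'_id]
  · intro v
    rw [LinearMap.toMatrix'_mulVec]
    obtain ⟨w, u, rfl⟩ := hdec v
    rw [key, Q_add Q, Q_add Q, hQ.smul, (hφ w w.2).2, (hφ u u.2).2, hB.smul_left,
      horth u u.2 _ (hφ w w.2).1, horth w w.2 _ (hφ u u.2).1]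
    ring
  · intro v
    rw [LinearMap.toMatrix'_mulVec]
    obtain ⟨w, u, rfl⟩ := hdec v
    rw [key, hB.add_left, hB.add_right, hB.add_right, hB.smul_right, hB.smul_right,
      horth w w.2 _ (hφ w w.2).1, hsymm (φ u) u, horth u u.2 _ (hφ u u.2).1,
      hpol u u.2 w w.2, hsymm (u : ι → F) w]
    ring

end Cfsg.Agent.Lib.Helper52.O10
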